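import Cfsg.Prelude.Def_OddOrderLocal
import Cfsg.Agent.Solv.Cores

/-! The normal nilpotent Hall subgroup `M_F` and the complement `U`. -/

set_option autoImplicit false

namespace Cfsg.Agent.TypeP

open Cfsg Cfsg.Agent.Solv

theorem commute_of_coprime {F : Type*} [Group F] [Group.IsNilpotent F] :
    ∀ x y : F, (orderOf x).Coprime (orderOf y) → Commute x y := by
  refine Group.nilpotent_center_quotient_ind
    (P := fun F [Group F] _ => ∀ x y : F, (orderOf x).Coprime (orderOf y) → Commute x y) F ?_ ?_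
  · intro G _ _ x y _
    exact Subsingleton.elim (α := G) _ _
  · intro G _ _ ih x y hxy
    set k := x * y * x⁻¹ * y⁻¹ with hk
    have hkc : k ∈ Subgroup.center G := by
      rw [← QuotientGroup.eq_one_iff, hk]
      have hc := ih (x : G ⧸ Subgroup.center G) (y : G ⧸ Subgroup.center G)
        ((hxy.coprime_dvd_left (orderOf_map_dvd (QuotientGroup.mk' _) x)).coprime_dvd_right
          (orderOf_map_dvd (QuotientGroup.mk' _) y))
      simp only [QuotientGroup.mk_mul, QuotientGroup.mk_inv]
      rw [hc.eq, mul_inv_cancel_right, mul_inv_cancel]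
    have hcx : Commute k x := (Subgroup.mem_center_iff.1 hkc x).symm
    have hcy : Commute k y := (Subgroup.mem_center_iff.1 hkc y).symm
    have e1 : x * y * x⁻¹ = k * y := by rw [hk]; group
    have e2 : y⁻¹ * x * y = y⁻¹ * k * y * x := by rw [hk]; group
    have hky : k ^ orderOf y = 1 := by
      have := congrArg (· ^ orderOf y) e1
      simp only [conj_pow, pow_orderOf_eq_one, mul_one, mul_inv_cancel, hcy.mul_pow] at this
      exact this.symm
    have hkx : k ^ orderOf x = 1 := by
      have e3 : y⁻¹ * x * y = k * x := by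
        rw [e2, mul_assoc y⁻¹ k y, hcy.eq, inv_mul_cancel_left]
      have := congrArg (· ^ orderOf x) e3
      have h2 : (y⁻¹ * x * y) ^ orderOf x = 1 := by
        rw [show y⁻¹ * x * y = y⁻¹ * x * y⁻¹⁻¹ by rw [inv_inv], conj_pow, pow_orderOf_eq_one, mul_one,
          mul_inv_cancel]
      simp only [h2, hcx.mul_pow, pow_orderOf_eq_one, mul_one] at this
      exact this.symm
    have h1 : k = 1 := orderOf_eq_one_iff.1 (Nat.eq_one_of_dvd_coprimes hxy
      (orderOf_dvd_of_pow_eq_one hkx) (orderOf_dvd_of_pow_eq_one hky))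
    rw [h1, one_mul] at e1
    exact mul_inv_eq_iff_eq_mul.1 e1

theorem fittingHall_mem (M : Type*) [Group M] [Finite M] :
    (fittingHall M).Normal ∧ (Nat.card (fittingHall M)).Coprime (fittingHall M).index := by
  refine ⟨fittingHall_normal M, ?_⟩
  have key : sSup {N : Subgroup M | N.Normal ∧ Group.IsNilpotent N ∧ (Nat.card N).Coprime N.index} ∈
      {N : Subgroup M | N.Normal ∧ Group.IsNilpotent N ∧ (Nat.card N).Coprime N.index} := by
    refine sSup_mem_of_sup_closed ⟨inferInstance, inferInstance, by simp⟩ ?_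
    intro A hA B hB
    haveI := hA.1; haveI := hB.1
    have hF : Group.IsNilpotent ↥(A ⊔ B) := by
      haveI := fittingSubgroup_isNilpotent (G := M)
      exact Group.nilpotent_of_mulEquiv (Subgroup.subgroupOfEquivOfLe
        (sup_le (le_fittingSubgroup hA.1 hA.2.1) (le_fittingSubgroup hB.1 hB.2.1)))
    refine ⟨inferInstance, hF, Nat.coprime_of_dvd fun p hp h1 h2 => ?_⟩
    have hdvd : p ∣ Nat.card A * Nat.card B := by
      refine h1.trans ?_
      have h3 : Nat.card A * A.relIndex (A ⊔ B) = Nat.card ↥(A ⊔ B) := by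
        rw [← Subgroup.relIndex_bot_left, ← Subgroup.relIndex_bot_left]
        exact Subgroup.relIndex_mul_relIndex _ _ _ bot_le le_sup_left
      rw [Subgroup.relIndex_sup_left] at h3
      rw [← h3]
      exact Nat.mul_dvd_mul_left _ (Subgroup.relIndex_dvd_card _ _)
    rcases (Nat.Prime.dvd_mul hp).1 hdvd with h | h
    · exact hp.ne_one (Nat.eq_one_of_dvd_coprimes hA.2.2 h (h2.trans (Subgroup.index_dvd_of_le le_sup_left)))
    · exact hp.ne_one (Nat.eq_one_of_dvd_coprimes hB.2.2 h (h2.trans (Subgroup.index_dvd_of_le le_sup_right)))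
  exact key.2.2

/-- Elements of `F(M)` outside `M_F` in a complement centralize `M_F`. -/
theorem fitting_inf_complement_le {G : Type*} [Group G] [Finite G] {M U : Subgroup G}
    (hU : fittingHallOf M ⊓ U = ⊥) :
    fittingOf M ⊓ U ≤ Subgroup.centralizer (fittingHallOf M : Set G) := by
  rintro u ⟨huF, huU⟩
  obtain ⟨f, hf, rfl⟩ := huF
  refine Subgroup.mem_centralizer_iff.2 ?_
  rintro _ ⟨h, hh, rfl⟩
  haveI := fittingSubgroup_isNilpotent (G := ↥M)
  obtain ⟨hN, hcop⟩ := fittingHall_mem ↥M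
  haveI := hN
  have hinj : orderOf (f : ↥M ⧸ fittingHall ↥M) = orderOf f := by
    refine Nat.dvd_antisymm (orderOf_map_dvd (QuotientGroup.mk' _) f) (orderOf_dvd_of_pow_eq_one ?_)
    have hmem : f ^ orderOf (f : ↥M ⧸ fittingHall ↥M) ∈ fittingHall ↥M := by
      rw [← QuotientGroup.eq_one_iff, QuotientGroup.mk_pow]; exact pow_orderOf_eq_one _
    refine Subtype.ext ((Subgroup.eq_bot_iff_forall _).1 hU _ ⟨⟨_, hmem, rfl⟩, ?_⟩)
    rw [SubmonoidClass.coe_pow]
    exact U.pow_mem huU _
  have hhF : h ∈ fittingSubgroup ↥M := by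
    have : fittingHall ↥M ≤ fittingSubgroup ↥M := sSup_le fun N hN => le_fittingSubgroup hN.1 hN.2.1
    exact this hh
  have hco : (orderOf h).Coprime (orderOf f) := by
    refine (hcop.coprime_dvd_left ?_).coprime_dvd_right ?_
    · have := orderOf_dvd_natCard (⟨h, hh⟩ : ↥(fittingHall ↥M))
      rwa [← Subgroup.orderOf_coe] at this
    · rw [← hinj]; exact orderOf_dvd_natCard _
  have hc := commute_of_coprime (⟨h, hhF⟩ : ↥(fittingSubgroup ↥M)) ⟨f, hf⟩
    (by rwa [← Subgroup.orderOf_coe (⟨h, hhF⟩ : ↥(fittingSubgroup ↥M)), ← Subgroup.orderOf_coe (⟨f, hf⟩ : ↥(fittingSubgroup ↥M))])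
  exact congrArg (fun x : ↥(fittingSubgroup ↥M) => ((x : ↥M) : G)) hc.eq

end Cfsg.Agent.TypeP
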